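import Mathlib
import Cfsg.Agent.LocalEven.Cores

/-! Sets of involutions whose products have order `1`, `2` or `p`, for a prime `p ≥ 5`: local analysis. -/

namespace Cfsg.Agent.PTr

open Subgroup Cfsg.Agent.LocalEven

universe u

variable {K : Type u} [Group K] {p : ℕ} {D : Set K}

theorem eq_one_of_cop {u : K} {m n : ℕ} (h : m.Coprime n) (h1 : u ^ m = 1) (h2 : u ^ n = 1) :
    u = 1 := by
  rw [← orderOf_eq_one_iff]
  exact Nat.eq_one_of_dvd_coprimes h (orderOf_dvd_of_pow_eq_one h1) (orderOf_dvd_of_pow_eq_one h2)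

theorem comm_of_pow {u x : K} {m n : ℕ} (h : m.Coprime n) (h1 : u ^ n = 1)
    (h2 : Commute (u ^ m) x) : Commute u x := by
  obtain ⟨k, hk⟩ := exists_pow_eq_self_of_coprime
    (h.coprime_dvd_right (orderOf_dvd_of_pow_eq_one h1))
  rw [← hk]; exact h2.pow_left k

theorem inv_eq {x : K} (h : x * x = 1) : x⁻¹ = x := inv_eq_of_mul_eq_one_right h

theorem comm_of_sq {x y : K} (hx : x * x = 1) (hy : y * y = 1) (h : x * y * (x * y) = 1) :
    Commute x y := by
  have := inv_eq h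
  rw [mul_inv_rev, inv_eq hx, inv_eq hy] at this
  exact this.symm

theorem sq_of_comm {x y : K} (hx : x * x = 1) (hy : y * y = 1) (h : Commute x y) :
    x * y * (x * y) = 1 := by
  rw [mul_assoc, ← mul_assoc y, ← h.eq, mul_assoc, hy, mul_one, hx]

theorem pow_odd_of_sq {x : K} (hx : x * x = 1) {n : ℕ} (hn : Odd n) : x ^ n = x := by
  obtain ⟨k, rfl⟩ := hn
  rw [pow_succ, pow_mul, sq, hx, one_pow, one_mul]

theorem conj_of_odd {x y : K} (hx : x * x = 1) (hy : y * y = 1) {n : ℕ} (hn : Odd n)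
    (h : (x * y) ^ n = 1) : ∃ k : ℕ, ((x * y) ^ k)⁻¹ * x * (x * y) ^ k = y := by
  obtain ⟨k, rfl⟩ := hn
  have h1 : SemiconjBy x (x * y) (x * y)⁻¹ := by
    rw [SemiconjBy, mul_inv_rev, inv_eq hx, inv_eq hy, ← mul_assoc, hx, mul_assoc y, hx]; simp
  refine ⟨k + 1, ?_⟩
  have h2 := (h1.pow_right (k + 1)).eq
  have h3 : ((x * y) ^ (k + 1))⁻¹ * x = x * (x * y) ^ (k + 1) := by rw [h2, inv_pow]
  rw [h3, mul_assoc, ← pow_add, show k + 1 + (k + 1) = 2 * k + 1 + 1 by ring, pow_succ, h, one_mul,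
    ← mul_assoc, hx, one_mul]

/-- `{2, p}`-transpositions -/
structure PT (p : ℕ) (D : Set K) : Prop where
  pr : p.Prime
  n2 : p ≠ 2
  n3 : p ≠ 3
  sq : ∀ d ∈ D, d * d = 1
  conj : ∀ d ∈ D, ∀ g : K, g * d * g⁻¹ ∈ D
  ord : ∀ d ∈ D, ∀ e ∈ D, Commute d e ∨ (d * e) ^ p = 1

namespace PT

variable (h : PT p D)
include h

theorem odd : Odd p := h.pr.odd_of_ne_two h.n2

theorem cop2 (k : ℕ) : (2 ^ k).Coprime p :=
  Nat.Coprime.pow_left _ ((Nat.coprime_primes Nat.prime_two h.pr).2 h.n2.symm)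

theorem cop3 : (3 : ℕ).Coprime p := (Nat.coprime_primes Nat.prime_three h.pr).2 h.n3.symm

theorem conj' {d : K} (hd : d ∈ D) {s : K} (hs : s * s = 1) : s * d * s ∈ D := by
  have := h.conj d hd s
  rwa [inv_eq hs] at this

theorem pw {x y : K} (hx : x ∈ D) (hy : y ∈ D) (hn : ¬ Commute x y) : (x * y) ^ p = 1 :=
  (h.ord x hx y hy).resolve_left hn

theorem comm_of_two {x y : K} (hx : x ∈ D) (hy : y ∈ D) {k : ℕ} (e : (x * y) ^ 2 ^ k = 1) :
    Commute x y := by
  by_contra hn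
  have := eq_one_of_cop (h.cop2 k) e (h.pw hx hy hn)
  exact hn (comm_of_sq (h.sq x hx) (h.sq y hy) (by rw [this, one_mul]))

theorem mem_of_pow {x y : K} (hx : x ∈ D) (hy : y * y = 1) (e : (x * y) ^ p = 1) : y ∈ D := by
  obtain ⟨k, hk⟩ := conj_of_odd (h.sq x hx) hy h.odd e
  have := h.conj x hx ((x * y) ^ k)⁻¹
  rwa [inv_inv, hk] at this

theorem nc_conj {x s : K} (hx : x ∈ D) (hs : s ∈ D) (hn : ¬ Commute x s) :
    ¬ Commute x (s * x * s) := fun hc => hn (h.comm_of_two hx hs (k := 2) (by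
  have := sq_of_comm (h.sq x hx) (h.sq _ (h.conj' hx (h.sq s hs))) hc
  rw [← this, show 2 ^ 2 = 4 from rfl]; simp only [pow_succ, pow_zero, one_mul, mul_assoc]))

theorem exists_swap {x y : K} (hx : x ∈ D) (hy : y ∈ D) (hn : ¬ Commute x y) :
    ∃ s ∈ D, s * x * s = y := by
  obtain ⟨k, hk⟩ := conj_of_odd (h.sq x hx) (h.sq y hy) h.odd (h.pw hx hy hn)
  have h1 : SemiconjBy x (x * y) (x * y)⁻¹ := by
    rw [SemiconjBy, mul_inv_rev, inv_eq (h.sq x hx), inv_eq (h.sq y hy), ← mul_assoc, h.sq x hx,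
      mul_assoc y, h.sq x hx]; simp
  have h2 : x * (x * y) ^ k = ((x * y) ^ k)⁻¹ * x := by rw [(h1.pow_right k).eq, inv_pow]
  have h3 : x * (x * y) ^ k * (x * (x * y) ^ k) = 1 := by
    nth_rewrite 2 [h2]
    rw [mul_assoc, mul_inv_cancel_left, h.sq x hx]
  refine ⟨x * (x * y) ^ k, h.mem_of_pow hx h3 ?_, ?_⟩
  · rw [← mul_assoc, h.sq x hx, one_mul, ← pow_mul, mul_comm, pow_mul, h.pw hx hy hn, one_pow]
  · nth_rewrite 1 [h2]
    rw [mul_assoc _ x x, h.sq x hx, mul_one, ← mul_assoc, hk]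

/-- Lemma A -/
theorem comm_of_comm_mul {w x z : K} (hw : w ∈ D) (hx : x ∈ D) (hz : z ∈ D) (hn : ¬ Commute x z)
    (hc : Commute w (x * z)) : Commute w x := by
  by_contra hwx
  have h1 : SemiconjBy x (x * z) (x * z)⁻¹ := by
    rw [SemiconjBy, mul_inv_rev, inv_eq (h.sq x hx), inv_eq (h.sq z hz), ← mul_assoc, h.sq x hx,
      mul_assoc z, h.sq x hx]; simp
  have h2 : SemiconjBy (w * x) (x * z) (x * z)⁻¹ := hc.inv_right.semiconjBy.mul_left h1
  have h3 : SemiconjBy (w * x) (x * z)⁻¹ (x * z) := by simpa using h2.inv_right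
  have h4 : Commute ((w * x) ^ 2 ^ 1) (x * z) := by
    rw [pow_one, _root_.sq]; exact h3.mul_left h2
  have h5 := comm_of_pow (h.cop2 1) (h.pw hw hx hwx) h4
  have h6 : (x * z)⁻¹ = x * z := mul_right_cancel (h2.eq.symm.trans h5.eq)
  exact hn (comm_of_sq (h.sq x hx) (h.sq z hz) (by nth_rewrite 1 [← h6]; rw [inv_mul_cancel]))

/-- Lemma B -/
theorem eq_of_comm_mul {a b c : K} (ha : a ∈ D) (hb : b ∈ D) (hc : c ∈ D) (hab : Commute a b)
    (h1 : ¬ Commute a c) (h2 : ¬ Commute b c) (h3 : Commute c (a * b)) : a = b := by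
  have t1 : Commute (a * b) (a * c) :=
    ((Commute.refl a).mul_left hab.symm).mul_right h3.symm
  have t2 : b * c = a * b * (a * c) := by
    rw [hab.eq, mul_assoc, ← mul_assoc a, h.sq a ha, one_mul]
  have t3 := h.pw hb hc h2
  rw [t2, t1.mul_pow, h.pw ha hc h1, mul_one,
    pow_odd_of_sq (sq_of_comm (h.sq a ha) (h.sq b hb) hab) h.odd] at t3
  rw [← inv_eq (h.sq b hb)]; exact eq_inv_of_mul_eq_one_left t3

theorem comm_left {x y w : K} (hx : x ∈ D) (hy : y ∈ D) (hw : w ∈ D) (hxy : Commute x y)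
    (hne : x ≠ y) (hc : Commute w (x * y)) : Commute w x := by
  by_contra h1
  refine hne (h.eq_of_comm_mul hx hy hw hxy (fun e => h1 e.symm) (fun e => h1 ?_) hc)
  have := hc.mul_right e.symm
  rwa [mul_assoc, h.sq y hy, mul_one] at this

theorem map {L : Type u} [Group L] (f : K →* L) (hf : Function.Surjective f) : PT p (f '' D) where
  pr := h.pr
  n2 := h.n2
  n3 := h.n3
  sq := by rintro _ ⟨d, hd, rfl⟩; rw [← map_mul, h.sq d hd, map_one]
  conj := by
    rintro _ ⟨d, hd, rfl⟩ g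
    obtain ⟨g, rfl⟩ := hf g
    exact ⟨_, h.conj d hd g, by simp⟩
  ord := by
    rintro _ ⟨d, hd, rfl⟩ _ ⟨e, he, rfl⟩
    rcases h.ord d hd e he with h1 | h1
    · exact Or.inl (h1.map f)
    · exact Or.inr (by rw [← map_mul, ← map_pow, h1, map_one])

theorem sub (H : Subgroup K) : PT p ((↑) ⁻¹' D : Set H) where
  pr := h.pr
  n2 := h.n2
  n3 := h.n3
  sq := fun d hd => Subtype.ext (h.sq d hd)
  conj := fun d hd g => h.conj d hd g
  ord := fun d hd e he => (h.ord d hd e he).imp (fun h1 => Subtype.ext h1.eq)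
    fun h1 => Subtype.ext (by simpa using h1)

theorem cls {c : K} (hc : c ∈ D) : PT p (conjugatesOf c) := by
  have hs : ∀ d ∈ conjugatesOf c, d ∈ D := fun d hd => by
    obtain ⟨g, rfl⟩ := isConj_iff.1 hd
    exact h.conj c hc g
  exact ⟨h.pr, h.n2, h.n3, fun d hd => h.sq d (hs d hd),
    fun d hd g => IsConj.trans hd (isConj_iff.2 ⟨g, rfl⟩),
    fun d hd e he => h.ord d (hs d hd) e (hs e he)⟩

end PT

/-- the configuration to be excluded -/
def Star (D : Set K) : Prop :=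
  ∃ a ∈ D, ∃ b ∈ D, ∃ c ∈ D, a * b ∈ D ∧ b ≠ 1 ∧ a ≠ b ∧ ¬ Commute a c

/-- the local alternative -/
def Loc (D : Set K) : Prop :=
  ∀ a ∈ D, ∀ b ∈ D, ∀ c ∈ D, Commute a b → ¬ Commute a c → ¬ Commute b c →
    Commute c (a * b * c * (a * b)) ∨ a * b ∈ D

theorem PT.loc [Finite K] (h : PT p D)
    (IH : ∀ (L : Type u) [Group L] [Finite L] (E : Set L), Nat.card L < Nat.card K → PT p E →
      ¬ Star E) : Loc D := by
  intro a ha b hb c hc hab h1 h2
  by_cases hne : a = b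
  · left; rw [hne, h.sq b hb, one_mul, mul_one]
  have ht : a * b * (a * b) = 1 := sq_of_comm (h.sq a ha) (h.sq b hb) hab
  refine (h.ord c hc _ (h.conj' hc ht)).imp_right fun h3 => ?_
  generalize ht' : a * b = t at ht h3
  have hj : (c * t) ^ p * (c * t) ^ p = 1 := by
    rw [← pow_add, ← two_mul, pow_mul, pow_two, ← h3]; simp only [mul_assoc]
  have hcj : Commute c ((c * t) ^ p) := by
    have t1 : SemiconjBy c (c * t) (c * t)⁻¹ := by
      rw [SemiconjBy, mul_inv_rev, inv_eq (h.sq c hc), inv_eq ht, ← mul_assoc, h.sq c hc,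
        mul_assoc t, h.sq c hc]; simp
    have := t1.pow_right p
    rwa [inv_pow, inv_eq hj] at this
  have htj : Commute t ((c * t) ^ p) := by
    have := hcj.mul_left ((Commute.refl (c * t)).pow_right p)
    rwa [← mul_assoc, h.sq c hc, one_mul] at this
  have hctj : Commute (c * t) ((c * t) ^ p) := (Commute.refl _).pow_right p
  generalize hj' : (c * t) ^ p = j at hj hcj htj hctj
  have hd : t * j ∈ D := h.mem_of_pow hc (sq_of_comm ht hj htj) (by
    rw [← mul_assoc, hctj.mul_pow, hj', pow_odd_of_sq hj h.odd, hj])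
  by_contra hD
  have hj1 : j ≠ 1 := by rintro rfl; exact hD (by simpa using hd)
  have hda : Commute (t * j) a := h.comm_left ha hb hd hab hne
    (ht' ▸ (Commute.refl t).mul_left htj.symm)
  have hta : Commute t a := ht' ▸ (Commute.refl a).mul_left hab.symm
  have htb : Commute t b := ht' ▸ hab.mul_left (Commute.refl b)
  have haj : Commute j a := by
    have := hta.mul_left hda
    rwa [← mul_assoc, ht, one_mul] at this
  have hbj : Commute j b := by
    have := haj.mul_right htj.symm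
    rwa [← ht', ← mul_assoc, h.sq a ha, one_mul] at this
  let H : Subgroup K := centralizer {j}
  have mem : ∀ {x : K}, Commute j x → x ∈ H := fun hx => mem_centralizer_singleton_iff.2 hx.eq.symm
  let j' : H := ⟨j, mem (Commute.refl j)⟩
  have hN : (zpowers j').Normal := ⟨fun n hn g => by
    obtain ⟨k, rfl⟩ := mem_zpowers_iff.1 hn
    have : Commute g j' := Subtype.ext (mem_centralizer_singleton_iff.1 g.2)
    rw [(this.zpow_right k).eq, mul_inv_cancel_right]; exact zpow_mem (mem_zpowers _) k⟩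
  have hz : ∀ x : H, x ∈ zpowers j' → (x : K) = 1 ∨ (x : K) = j := fun x hx => by
    obtain ⟨k, rfl⟩ := mem_zpowers_iff.1 hx
    have h2 : j ^ (2 : ℕ) = 1 := by rw [pow_two, hj]
    rcases Int.even_or_odd' k with ⟨m, rfl | rfl⟩
    · left; simp [j', zpow_mul, h2]
    · right; simp [j', zpow_add, zpow_mul, h2]
  have hlt : Nat.card (H ⧸ zpowers j') < Nat.card K := by
    refine lt_of_lt_of_le ?_ (card_le_card_group H)
    rw [← (zpowers j').card_mul_index, ← Subgroup.index]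
    have : 1 < Nat.card (zpowers j') := (one_lt_card_iff_ne_bot _).2 (by
      rw [Ne, zpowers_eq_bot]; exact fun e => hj1 (congrArg Subtype.val e))
    nlinarith [Nat.pos_of_ne_zero (zpowers j').index_ne_zero_of_finite]
  refine IH _ _ hlt ((h.sub H).map (QuotientGroup.mk' (zpowers j')) (QuotientGroup.mk'_surjective _))
    ⟨_, ⟨⟨a, mem haj⟩, ha, rfl⟩, _, ⟨⟨b, mem hbj⟩, hb, rfl⟩, _, ⟨⟨c, mem hcj.symm⟩, hc, rfl⟩,
      ⟨⟨t * j, mem (htj.symm.mul_right (Commute.refl j))⟩, hd, ?_⟩, fun e => ?_, fun e => ?_,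
      fun e => ?_⟩
  · rw [← map_mul, QuotientGroup.mk'_apply, QuotientGroup.mk'_apply, eq_comm, QuotientGroup.eq]
    convert mem_zpowers j' using 1
    apply Subtype.ext
    simp [j', ht']
  · rcases hz _ ((QuotientGroup.eq_one_iff _).1 e) with e' | e'
    · exact h2 (by rw [show b = 1 from e']; exact Commute.one_left c)
    · exact h2 (by rw [show b = j from e']; exact hcj.symm)
  · rcases hz _ (QuotientGroup.eq.1 e) with e' | e'
    · exact hne (inv_mul_eq_one.1 e')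
    · have : a * b = j := by rw [← inv_eq (h.sq a ha)]; exact e'
      exact hne (h.eq_of_comm_mul ha hb hc hab h1 h2 (this ▸ hcj))
  · have e1 := e.eq
    rw [← map_mul, ← map_mul] at e1
    refine h1 (h.comm_of_two ha hc (k := 2) ?_)
    have e2 : (c * a)⁻¹ * (a * c) = 1 ∨ (c * a)⁻¹ * (a * c) = j := hz _ (QuotientGroup.eq.1 e1.symm)
    rw [mul_inv_rev, inv_eq (h.sq a ha), inv_eq (h.sq c hc)] at e2
    rw [show 2 ^ 2 = 2 * 2 by rfl, pow_mul, pow_two (a * c), pow_two]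
    rcases e2 with e2 | e2 <;> rw [e2]
    · exact one_mul 1
    · exact hj

end Cfsg.Agent.PTr
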