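import Mathlib
import Cfsg.Agent.PTr.A

/-! Sets of involutions whose products have order `1`, `2` or `p`: commuting is an equivalence relation. -/

namespace Cfsg.Agent.PTr

open Subgroup

universe u

variable {K : Type u} [Group K] {p : ℕ} {D : Set K}

theorem comm_swap {a t : K} (h : Commute a (t * a * t)) : Commute t (a * t * a) := by
  have := h.eq
  simp only [mul_assoc] at this
  simp only [Commute, SemiconjBy, mul_assoc, this]

namespace PT

variable (h : PT p D)
include h

theorem four (hL : Loc D) {b c e f g : K} (hb : b ∈ D) (hc : c ∈ D) (he : e ∈ D) (hf : f ∈ D)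
    (hg : g ∈ D) (hc1 : c ≠ 1) (hef : Commute e f) (hcg : Commute c g) (hq : e * f = c * g)
    (hbc : Commute b c) (hbe : ¬ Commute b e) (hbf : ¬ Commute b f) : e = f := by
  by_contra hne
  refine hbe (h.comm_left he hf hb hef hne ?_)
  rcases hL e he f hf b hb hef (fun k => hbe k.symm) (fun k => hbf k.symm) with k | k
  · rw [hq] at k ⊢
    refine hbc.mul_right ?_
    have k1 : c * g * b * (c * g) = g * b * g := by
      rw [hcg.eq, mul_assoc g c b, ← hbc.eq, ← hcg.eq, mul_assoc, mul_assoc, ← mul_assoc c,
        h.sq c hc, one_mul, mul_assoc]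
    rw [k1] at k
    by_contra k2
    exact h.nc_conj hb hg k2 k
  · rw [hq] at k ⊢
    refine h.comm_left k hg hb (hcg.mul_left (Commute.refl g)) (fun k1 => hc1 ?_) ?_
    · simpa using k1
    · rwa [mul_assoc, h.sq g hg, mul_one]

theorem equiv (hL : Loc D) {a b c e : K} (ha : a ∈ D) (hb : b ∈ D) (hc : c ∈ D) (he : e ∈ D)
    (hce : Commute c e) (hac : ¬ Commute c a) (hae : ¬ Commute e a) (hbc : Commute b c) :
    Commute b e := by
  by_contra hbe
  have hc1 : c ≠ 1 := by rintro rfl; exact hac (Commute.one_left a)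
  have hne : c ≠ e := by rintro rfl; exact hbe hbc
  have c2 := h.sq c hc
  have a2 := h.sq a ha
  have e2 := h.sq e he
  have hD : c * e ∉ D := fun hD => hbe (h.comm_left he hD hb (hce.symm.mul_right (Commute.refl e))
    (fun k => hc1 (by simpa using k)) (by rwa [hce.eq, ← mul_assoc, e2, one_mul]))
  have hup := h.pw hc ha hac
  have t2 : c * e * (c * e) = 1 := sq_of_comm c2 e2 hce
  have hct : Commute c (c * e) := (Commute.refl c).mul_right hce
  have het : Commute e (c * e) := hce.symm.mul_right (Commute.refl e)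
  have hee : e = c * (c * e) := by rw [← mul_assoc, c2, one_mul]
  have fin : ¬ Commute (c * a) (c * e) := fun k => by
    refine hne (h.eq_of_comm_mul hc he ha hce hac hae ?_)
    have := hct.mul_left k
    rwa [← mul_assoc, c2, one_mul] at this
  have h1 := comm_swap ((hL c hc e he a ha hce hac hae).resolve_right hD)
  have h2 := comm_swap ((hL c hc e he _ (h.conj' hc a2) hce (h.nc_conj hc ha hac) (fun k => hae (by
    have k1 : Commute ((c * a) ^ 2 ^ 1) e := by
      have := hce.mul_left k.symm
      rwa [show c * (a * c * a) = (c * a) ^ 2 ^ 1 by simp [pow_two, mul_assoc]] at this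
    have := hce.mul_left (comm_of_pow (h.cop2 1) hup k1)
    rw [← mul_assoc, c2, one_mul] at this
    exact this.symm))).resolve_right hD)
  generalize c * e = t at hD t2 hct het hee fin h1 h2
  have cc : ∀ x, c * (c * x) = x := fun x => by rw [← mul_assoc, c2, one_mul]
  have aa : ∀ x, a * (a * x) = x := fun x => by rw [← mul_assoc, a2, one_mul]
  have tt : ∀ x, t * (t * x) = x := fun x => by rw [← mul_assoc, t2, one_mul]
  have tc : ∀ x, t * (c * x) = c * (t * x) := fun x => by rw [← mul_assoc, ← hct.eq, mul_assoc]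
  have s2 : a * t * a * (a * t * a) = 1 := by simp only [mul_assoc, aa, tt, a2]
  have h3 : Commute (c * (a * t * a) * c) (a * t * a) := by
    have := h2.conj (c * a)
    rw [mul_inv_rev, inv_eq c2, inv_eq a2] at this
    simpa only [mul_assoc, aa, cc, tc, c2, mul_one] using this
  generalize hs : a * t * a = s at h1 s2 h3
  have ss : ∀ x, s * (s * x) = x := fun x => by rw [← mul_assoc, s2, one_mul]
  have hf := h.conj' hc s2
  have hg := h.conj' he s2
  have hcf : Commute c (s * c * s) := comm_of_sq c2 (h.sq _ hf) (by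
    have := sq_of_comm (by simp only [mul_assoc, cc, ss, c2]) s2 h3
    simpa only [mul_assoc] using this)
  have htf : Commute t (s * c * s) := (h1.mul_right hct.symm).mul_right h1
  have hfg : s * c * s * (s * e * s) = t := by
    rw [hee]; simp only [mul_assoc, ss, cc]; rw [h1.eq, ss]
  have hgf : s * e * s = s * c * s * t := by
    rw [← hfg, ← mul_assoc, h.sq _ hf, one_mul]
  have hef : Commute e (s * c * s) := by rw [hee]; exact hcf.mul_left htf
  have hcg : Commute c (s * e * s) := by rw [hgf]; exact hcf.mul_right hct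
  have heg : Commute e (s * e * s) := by rw [hgf]; exact hef.mul_right het
  by_cases k1 : Commute b (s * c * s)
  · have k2 : ¬ Commute b (s * e * s) := fun k2 => hbe (by
      rw [hee, ← hfg]; exact hbc.mul_right (k1.mul_right k2))
    have k3 := h.four hL hb hc he hg hf hc1 heg hcf (by
      rw [hgf, ← htf.eq]; nth_rewrite 1 [hee]; rw [mul_assoc, tt]) hbc hbe k2
    have k4 : Commute s e := by
      rw [Commute, SemiconjBy]; nth_rewrite 2 [k3]; rw [mul_assoc _ s s, s2, mul_one]
    have k5 : Commute s c := by
      have := k4.mul_right h1.symm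
      rwa [hee, mul_assoc, t2, mul_one] at this
    refine fin (comm_of_pow (h.cop2 1) hup ?_)
    have k6 : c * s * c = s := by rw [← k5.eq, mul_assoc, c2, mul_one]
    rw [← hs] at k6
    have k7 : (c * a) ^ 2 ^ 1 = c * (a * (c * a)) := by simp [pow_two, mul_assoc]
    rw [k7, Commute, SemiconjBy]
    have k8 : t = a * (c * (a * t * a) * c) * a := by rw [k6]; simp only [mul_assoc, aa, a2, mul_one]
    nth_rewrite 1 [k8]
    simp only [mul_assoc, aa, cc, tc]
  · have k3 := h.four hL hb hc he hf hg hc1 hef hcg (by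
      rw [hgf, ← htf.eq]; nth_rewrite 1 [hee]; rw [mul_assoc]) hbc hbe k1
    refine fin (comm_of_pow h.cop3 hup ?_)
    have k4 : t = c * (a * (t * (a * (c * (a * (t * a)))))) := by
      have : t = c * (s * c * s) := by rw [← k3, hee, cc]
      nth_rewrite 1 [this]
      rw [← hs]; simp only [mul_assoc]
    -- `t = t₋₁ t₁`
    have k5 : c * (a * (t * (a * c))) = t * (a * (t * a)) := by
      nth_rewrite 2 [k4]
      simp only [mul_assoc, aa, tt, a2, mul_one]
    have k6 : a * (c * (a * (t * (a * (c * a))))) = t * (a * (t * a)) := by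
      have := congrArg (fun x => t * (a * (c * x * c) * a)) k4
      simp only [mul_assoc, aa, cc, tt, tc] at this
      exact this.symm
    have k7 := k5.trans k6.symm
    have k8 := congrArg (fun x => c * a * c * a * x * (c * a)) k7
    rw [Commute, SemiconjBy]
    simp only [mul_assoc, aa, cc, pow_succ, pow_zero, one_mul, c2, a2, mul_one, tc] at k8 ⊢
    exact k8

theorem trans (hL : Loc D) {x : K} (hD : D = conjugatesOf x) (hg : closure D = ⊤) {a b c : K}
    (ha : a ∈ D) (hb : b ∈ D) (hc : c ∈ D) (hab : Commute a b) (hbc : Commute b c) :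
    Commute a c := by
  let S : K → Prop := fun y => y ∈ D ∧
    (y = a ∨ ¬ Commute a y ∨ ∃ w ∈ D, ¬ Commute a w ∧ ¬ Commute y w)
  have step : ∀ y z, S y → z ∈ D → ¬ Commute y z → S z := by
    rintro y z ⟨hy, k⟩ hz hyz
    refine ⟨hz, Or.inr ?_⟩
    by_cases k1 : Commute a z
    · right
      by_cases k2 : Commute a y
      · rcases k with rfl | k | ⟨w, hw, k3, k4⟩
        · exact absurd k1 hyz
        · exact absurd k2 k
        · exact absurd (h.equiv hL hw hz ha hy k2 k3 k4 k1.symm).symm hyz
      · exact ⟨y, hy, k2, fun k => hyz k.symm⟩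
    · exact Or.inl k1
  have cj : ∀ g : K, ∀ y, S y → S (g * y * g⁻¹) := fun g => by
    have hg' : g ∈ closure D := hg ▸ mem_top g
    induction hg' using closure_induction'' with
    | one => simp
    | mem d hd =>
      intro y hy
      rw [inv_eq (h.sq d hd)]
      by_cases k : Commute y d
      · rwa [← k.eq, mul_assoc, h.sq d hd, mul_one]
      · exact step y _ hy (h.conj' hy.1 (h.sq d hd)) (h.nc_conj hy.1 hd k)
    | inv_mem d hd =>
      intro y hy
      rw [inv_inv, inv_eq (h.sq d hd)]
      by_cases k : Commute y d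
      · rwa [← k.eq, mul_assoc, h.sq d hd, mul_one]
      · exact step y _ hy (h.conj' hy.1 (h.sq d hd)) (h.nc_conj hy.1 hd k)
    | mul g k _ _ h1 h2 =>
      intro y hy
      have := h1 _ (h2 y hy)
      simpa only [mul_inv_rev, mul_assoc] using this
  have hab' : IsConj a b := by
    rw [hD] at ha hb
    exact IsConj.trans (IsConj.symm ha) hb
  obtain ⟨g, rfl⟩ := isConj_iff.1 hab'
  obtain ⟨-, k | k | ⟨w, hw, k1, k2⟩⟩ := cj g a ⟨ha, Or.inl rfl⟩
  · rwa [k] at hbc
  · exact absurd hab k
  · exact (h.equiv hL hw hc hb ha hab.symm k2 k1 hbc.symm).symm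

end PT

end Cfsg.Agent.PTr
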