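import Mathlib
import Cfsg.Agent.PTr.B

/-! Sets of involutions whose products have order `1`, `2` or `p`: the action on the commuting classes. -/

namespace Cfsg.Agent.PTr

open Subgroup

universe u

variable {K : Type u} [Group K] {p : ℕ} {D : Set K}

theorem ncard_modEq {G X : Type*} [Group G] [MulAction G X] [Finite X] (hp : p.Prime) {j : G}
    (hj : j ^ p = 1) (S : Set X) (hS : ∀ s ∈ S, j • s ∈ S) :
    S.ncard ≡ {s ∈ S | j • s = s}.ncard [MOD p] := by
  classical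
  haveI := Fact.mk hp
  haveI := Fintype.ofFinite S
  let f : Function.End S := fun s => ⟨j • s.1, hS _ s.2⟩
  have hf : ∀ (k : ℕ) (s : S), ((f ^ k) s).1 = j ^ k • s.1 := fun k => by
    induction k with
    | zero => simp [Function.End.one_def]
    | succ k ih => intro s; rw [pow_succ', pow_succ', mul_smul, ← ih]; rfl
  have h1 : f ^ p ^ 1 = 1 := funext fun s => Subtype.ext (by
    rw [pow_one, hf, hj, one_smul]; rfl)
  have h2 := Equiv.Perm.card_fixedPoints_modEq h1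
  rw [← Nat.card_eq_fintype_card, ← Nat.card_eq_fintype_card, Nat.card_coe_set_eq,
    Nat.card_coe_set_eq] at h2
  rw [← Set.ncard_image_of_injective _ Subtype.val_injective] at h2
  convert h2 using 2
  ext s
  constructor
  · rintro ⟨h3, h4⟩; exact ⟨⟨s, h3⟩, Subtype.ext h4, rfl⟩
  · rintro ⟨s, h3, rfl⟩; exact ⟨s.2, congrArg Subtype.val h3⟩

/-- the action on the classes of commuting elements -/
structure Geo (D : Set K) {Ω : Type u} [MulAction K Ω] (φ : K → Ω) : Prop where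
  eqv : ∀ d ∈ D, ∀ g : K, φ (g * d * g⁻¹) = g • φ d
  iff : ∀ d ∈ D, ∀ e ∈ D, φ d = φ e ↔ Commute d e
  surj : ∀ ω, ∃ e ∈ D, φ e = ω
  tr : ∀ d ∈ D, ∀ ω, ∃ g : K, g • φ d = ω

theorem PT.exists_geo (h : PT p D) (hL : Loc D) {x : K} (hD : D = conjugatesOf x)
    (hg : closure D = ⊤) : ∃ (M : Subgroup K) (φ : K → K ⧸ M), Geo D φ := by
  classical
  have hx : x ∈ D := hD ▸ mem_conjugatesOf_self
  let M : Subgroup K :=
    { carrier := {g | Commute (g * x * g⁻¹) x}
      one_mem' := by simp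
      mul_mem' := fun {a b} ha hb => by
        have := Commute.conj hb a
        refine h.trans hL hD hg (h.conj x hx _) (h.conj x hx a) hx ?_ ha
        simpa only [mul_inv_rev, mul_assoc] using this
      inv_mem' := fun {a} ha => by
        have := (Commute.conj ha a⁻¹).symm
        simpa [mul_assoc] using this }
  let φ : K → K ⧸ M := fun d => if k : ∃ g : K, g * x * g⁻¹ = d then (k.choose : K ⧸ M) else (d : K ⧸ M)
  have key : ∀ g k : K, (g : K ⧸ M) = k ↔ Commute (g * x * g⁻¹) (k * x * k⁻¹) := fun g k => by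
    rw [eq_comm, QuotientGroup.eq]
    change Commute _ x ↔ _
    constructor
    · intro e; simpa [mul_assoc] using e.conj k
    · intro e; simpa [mul_assoc] using e.conj k⁻¹
  have hφ : ∀ g : K, φ (g * x * g⁻¹) = g := fun g => by
    have k : ∃ g' : K, g' * x * g'⁻¹ = g * x * g⁻¹ := ⟨g, rfl⟩
    simp only [φ, dif_pos k]
    rw [key, k.choose_spec]
  have mem : ∀ d ∈ D, ∃ g : K, g * x * g⁻¹ = d := fun d hd => isConj_iff.1 (by rwa [hD] at hd)
  refine ⟨M, φ, fun d hd g => ?_, fun d hd e he => ?_, fun ω => ?_, fun d hd ω => ?_⟩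
  · obtain ⟨k, rfl⟩ := mem d hd
    rw [hφ, show g * (k * x * k⁻¹) * g⁻¹ = g * k * x * (g * k)⁻¹ by group, hφ]; rfl
  · obtain ⟨k, rfl⟩ := mem d hd
    obtain ⟨g, rfl⟩ := mem e he
    rw [hφ, hφ, key]
  · obtain ⟨g, rfl⟩ := QuotientGroup.mk_surjective ω
    exact ⟨_, h.conj x hx g, hφ g⟩
  · exact MulAction.exists_smul_eq K _ _

namespace Geo

variable {Ω : Type u} [MulAction K Ω] {φ : K → Ω} (G : Geo D φ) (h : PT p D)
include G h

theorem eqv' {d s : K} (hd : d ∈ D) (hs : s * s = 1) : φ (s * d * s) = s • φ d := by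
  rw [← G.eqv d hd s, inv_eq hs]

theorem fix {d : K} (hd : d ∈ D) {ω : Ω} : d • ω = ω ↔ φ d = ω := by
  obtain ⟨w, hw, rfl⟩ := G.surj ω
  rw [← G.eqv' h hw (h.sq d hd), G.iff _ (h.conj' hw (h.sq d hd)) _ hw, G.iff _ hd _ hw]
  refine ⟨fun e => ?_, fun e => ?_⟩
  · by_contra k1
    exact h.nc_conj hw hd (fun k2 => k1 k2.symm) e.symm
  · rw [e.eq, mul_assoc, h.sq d hd, mul_one]

theorem back {d : K} (hd : d ∈ D) {ω ω' : Ω} (e : d • ω = ω') : d • ω' = ω := by
  rw [← e, ← mul_smul, h.sq d hd, one_smul]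

theorem nc (hP : ∀ x ∈ D, ∀ y ∈ D, Commute x y → x ≠ y → x * y ∈ D) {s t : K} (hs : s ∈ D)
    (ht : t ∈ D) {ω ω' : Ω} (hne : ω ≠ ω') (e1 : s • ω = ω') (e2 : t • ω = ω') (hst : s ≠ t) :
    ¬ Commute s t := fun k => by
  have k1 := hP s hs t ht k hst
  refine hne (((G.fix h k1).1 ?_).symm.trans ((G.fix h k1).1 ?_))
  · rw [mul_smul, e2, G.back h hs e1]
  · rw [mul_smul, G.back h ht e2, e1]

theorem nc_mul {s t w : K} (hs : s ∈ D) (ht : t ∈ D) (hw : w ∈ D) (hst : ¬ Commute s t) :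
    ¬ Commute w (s * t) := fun k => by
  have k1 := h.comm_of_comm_mul hw hs ht hst k
  have k2 := k1.mul_right k
  rw [← mul_assoc, h.sq s hs, one_mul] at k2
  exact hst ((G.iff _ hs _ ht).1 (((G.iff _ hw _ hs).2 k1).symm.trans ((G.iff _ hw _ ht).2 k2)))

theorem uniq (hP : ∀ x ∈ D, ∀ y ∈ D, Commute x y → x ≠ y → x * y ∈ D) {s t y : K} (hs : s ∈ D)
    (ht : t ∈ D) (hy : y ∈ D) {ω ω' : Ω} (hne : ω ≠ ω') (e1 : s • ω = ω') (e2 : t • ω = ω')
    (e : s * y * s = t * y * t) : s = t := by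
  by_contra hst
  refine G.nc_mul h hs ht hy (G.nc h hP hs ht hne e1 e2 hst) ?_
  have : y * (s * t) = s * (s * y * s) * t := by
    rw [← mul_assoc s, ← mul_assoc s, h.sq s hs, one_mul, mul_assoc]
  rw [Commute, SemiconjBy, this, e]
  simp only [mul_assoc, h.sq t ht, mul_one]

theorem exists_free [Finite K] (hP : ∀ x ∈ D, ∀ y ∈ D, Commute x y → x ≠ y → x * y ∈ D) {x c : K}
    (hx : x ∈ D) (hc : c ∈ D) (hxc : ¬ Commute x c) :
    ∃ t ∈ D, ¬ Commute x t ∧ ∀ ω : Ω, (x * t) • ω ≠ ω := by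
  by_contra! H
  haveI : Nonempty Ω := ⟨φ x⟩
  choose! w hw using H
  choose y hy hy' using G.surj
  have e1 : ∀ t ∈ D, ¬ Commute x t → t • w t = x • w t := fun t ht k => by
    have := G.back h hx ((mul_smul x t (w t)).symm.trans (hw t ht k))
    exact this.symm
  have e2 : ∀ t ∈ D, ¬ Commute x t → w t ≠ x • w t := fun t ht k e => by
    refine k ((G.iff _ hx _ ht).1 (((G.fix h hx).1 e.symm).trans ((G.fix h ht).1 ?_).symm))
    rw [e1 t ht k, ← e]
  have e3 : ∀ t ∈ D, ¬ Commute x t → φ (t * y (x • w t) * t) = w t := fun t ht k => by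
    rw [G.eqv' h (hy _) (h.sq t ht), hy', G.back h ht (e1 t ht k)]
  let T := {t : K // t ∈ D ∧ ¬ Commute x t}
  let F : T → T := fun t => ⟨t.1 * y (x • w t.1) * t.1, h.conj' (hy _) (h.sq _ t.2.1), fun k => by
    have k1 := (G.iff _ hx _ (h.conj' (hy _) (h.sq _ t.2.1))).2 k
    rw [e3 _ t.2.1 t.2.2] at k1
    exact e2 _ t.2.1 t.2.2 ((G.fix h hx).2 k1).symm⟩
  have hF : Function.Injective F := fun s t e => by
    have k1 : s.1 * y (x • w s.1) * s.1 = t.1 * y (x • w t.1) * t.1 := congrArg Subtype.val e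
    have k2 : w s.1 = w t.1 := by rw [← e3 _ s.2.1 s.2.2, k1, e3 _ t.2.1 t.2.2]
    refine Subtype.ext (G.uniq h hP s.2.1 t.2.1 (hy (x • w t.1)) (e2 _ t.2.1 t.2.2) ?_
      (e1 _ t.2.1 t.2.2) (by rw [← k1, k2]))
    rw [← k2]; exact e1 _ s.2.1 s.2.2
  have k0 : φ (x * y (x • φ c) * x) = φ c := by
    rw [G.eqv' h (hy _) (h.sq x hx), hy', G.back h hx rfl]
  obtain ⟨t, ht⟩ := Finite.surjective_of_injective hF ⟨x * y (x • φ c) * x,
    h.conj' (hy _) (h.sq x hx), fun k => hxc ((G.iff _ hx _ hc).1 (by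
      rw [← k0]; exact (G.iff _ hx _ (h.conj' (hy _) (h.sq x hx))).2 k))⟩
  have k1 : t.1 * y (x • w t.1) * t.1 = x * y (x • φ c) * x := congrArg Subtype.val ht
  have k2 : w t.1 = φ c := by rw [← e3 _ t.2.1 t.2.2, k1, k0]
  have k3 : t.1 = x := G.uniq h hP t.2.1 hx (hy (x • w t.1)) (e2 _ t.2.1 t.2.2) (e1 _ t.2.1 t.2.2)
    rfl (by rw [k1, k2])
  exact t.2.2 (by rw [k3])

theorem dvd_swaps [Finite K] (hP : ∀ x ∈ D, ∀ y ∈ D, Commute x y → x ≠ y → x * y ∈ D) {a b : K}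
    (ha : a ∈ D) (hb : b ∈ D) (hab : Commute a b) (hne : a ≠ b) {ω ω' : Ω} (hω : ω ≠ ω') :
    p ∣ {s ∈ D | s • ω = ω'}.ncard := by
  obtain ⟨w, hw, rfl⟩ := G.surj ω
  obtain ⟨g, hg⟩ := G.tr a ha ω'
  have k1 : φ (g * a * g⁻¹) = ω' := by rw [G.eqv a ha, hg]
  have k2 : φ (g * b * g⁻¹) = ω' := by rw [G.eqv b hb, ← (G.iff _ ha _ hb).2 hab, hg]
  have sw : ∀ v ∈ D, φ v = ω' → ∃ s ∈ D, s * w * s = v ∧ s • φ w = ω' := fun v hv e => by
    obtain ⟨s, hs, k⟩ := h.exists_swap hw hv fun k => hω (((G.iff _ hw _ hv).2 k).trans e)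
    exact ⟨s, hs, k, by rw [← G.eqv' h hw (h.sq s hs), k, e]⟩
  obtain ⟨s, hs, s1, s2⟩ := sw _ (h.conj a ha g) k1
  obtain ⟨t, ht, t1, t2⟩ := sw _ (h.conj b hb g) k2
  have hst : s ≠ t := by
    rintro rfl
    exact hne (by simpa using s1.symm.trans t1)
  have hn := G.nc h hP hs ht hω s2 t2 hst
  have := ncard_modEq h.pr (j := MulAut.conj (s * t)) (by rw [← map_pow, h.pw hs ht hn, map_one])
    {s ∈ D | s • φ w = ω'} (fun v hv => ⟨h.conj v hv.1 _, by
      change (s * t * v * (s * t)⁻¹) • φ w = ω'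
      rw [mul_inv_rev, inv_eq (h.sq s hs), inv_eq (h.sq t ht)]
      simp only [mul_smul]
      rw [s2, G.back h ht t2, hv.2, G.back h ht t2, s2]⟩)
  rw [show {v ∈ {s ∈ D | s • φ w = ω'} | MulAut.conj (s * t) • v = v} = ∅ from ?_] at this
  · simpa [Nat.modEq_zero_iff_dvd] using this
  · refine Set.eq_empty_of_forall_notMem fun v hv => G.nc_mul h hs ht hv.1.1 hn ?_
    exact (mul_inv_eq_iff_eq_mul.1 (show s * t * v * (s * t)⁻¹ = v from hv.2)).symm

theorem count [Finite K] [Finite Ω] (hP : ∀ x ∈ D, ∀ y ∈ D, Commute x y → x ≠ y → x * y ∈ D)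
    {x b c : K} (hx : x ∈ D) (hb : b ∈ D) (hc : c ∈ D) (hxb : Commute x b) (hne : x ≠ b)
    (hxc : ¬ Commute x c) : False := by
  classical
  haveI := Fintype.ofFinite K
  haveI := Fintype.ofFinite Ω
  have fp : ∀ t ∈ D, ¬ Commute x t →
      Fintype.card Ω ≡ {ω : Ω | (x * t) • ω = ω}.ncard [MOD p] := fun t ht k => by
    simpa [Set.ncard_univ] using
      ncard_modEq h.pr (h.pw hx ht k) (Set.univ : Set Ω) (fun _ _ => trivial)
  have hn : p ∣ Fintype.card Ω := by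
    obtain ⟨t, ht, k, k1⟩ := G.exists_free h hP hx hc hxc
    have := fp t ht k
    rw [show {ω : Ω | (x * t) • ω = ω} = ∅ from Set.eq_empty_of_forall_notMem k1] at this
    simpa [Nat.modEq_zero_iff_dvd] using this
  have dc := Finset.sum_card_bipartiteAbove_eq_sum_card_bipartiteBelow
    (fun (ω : Ω) (t : K) => t • ω = x • ω) (s := Finset.univ.erase (φ x))
    (t := Finset.univ.filter (· ∈ D))
  have d1 : p ∣ ∑ ω ∈ Finset.univ.erase (φ x),
      (Finset.bipartiteAbove (fun (ω : Ω) (t : K) => t • ω = x • ω)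
        (Finset.univ.filter (· ∈ D)) ω).card := Finset.dvd_sum fun ω hω => by
    have := G.dvd_swaps h hP hx hb hxb hne (ω := ω) (ω' := x • ω) fun e =>
      (Finset.mem_erase.1 hω).1 ((G.fix h hx).1 e.symm).symm
    refine this.trans (dvd_of_eq ?_)
    rw [← Set.ncard_coe_finset]; congr 1; ext t; simp
  rw [dc, ← Finset.add_sum_erase _ _ (a := x) (by simpa using hx)] at d1
  have d2 := (Nat.dvd_add_left (Finset.dvd_sum fun t ht => ?_)).1 d1
  · rw [show Finset.bipartiteBelow (fun (ω : Ω) (t : K) => t • ω = x • ω)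
      (Finset.univ.erase (φ x)) x = Finset.univ.erase (φ x) by ext; simp,
      Finset.card_erase_of_mem (Finset.mem_univ _), Finset.card_univ] at d2
    have : 0 < Fintype.card Ω := Fintype.card_pos_iff.2 ⟨φ x⟩
    have d3 := Nat.dvd_sub hn d2
    rw [Nat.sub_sub_self this] at d3
    exact h.pr.one_lt.ne' (Nat.dvd_one.1 d3)
  · have ht1 : t ≠ x := (Finset.mem_erase.1 ht).1
    have ht2 : t ∈ D := by simpa using (Finset.mem_erase.1 ht).2
    by_cases k : Commute x t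
    · rw [show Finset.bipartiteBelow (fun (ω : Ω) (t : K) => t • ω = x • ω)
        (Finset.univ.erase (φ x)) t = ∅ from ?_]
      · simp
      · refine Finset.eq_empty_of_forall_notMem fun ω hω => ?_
        simp only [Finset.mem_bipartiteBelow, Finset.mem_erase] at hω
        exact G.nc h hP ht2 hx (fun e => hω.1.1 ((G.fix h hx).1 e.symm).symm) hω.2 rfl ht1 k.symm
    · have := (fp t ht2 k).dvd_iff dvd_rfl |>.1 hn
      refine this.trans (dvd_of_eq (Eq.symm ?_))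
      rw [← Set.ncard_coe_finset]; congr 1; ext ω
      simp only [Finset.coe_bipartiteBelow, Finset.mem_erase, Finset.mem_univ, and_true,
        Set.mem_ofPred_eq, mul_smul]
      refine ⟨fun e => by rw [e.2]; exact G.back h hx rfl, fun e => ?_⟩
      have e1 := G.back h hx e
      refine ⟨?_, e1.symm⟩
      rintro rfl
      rw [(G.fix h hx).2 rfl] at e1
      exact k ((G.iff _ hx _ ht2).1 ((G.fix h ht2).1 e1.symm).symm)

theorem ker (hL : Loc D) {x y : K} (hx : x ∈ D) (hy : y ∈ D) (hxy : Commute x y) (hD : x * y ∉ D)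
    (ω : Ω) : (x * y) • ω = ω := by
  obtain ⟨w, hw, rfl⟩ := G.surj ω
  have e := (G.iff _ hx _ hy).2 hxy
  by_cases k : Commute x w
  · have k1 := (G.iff _ hx _ hw).2 k
    rw [mul_smul, (G.fix h hy).2 (e.symm.trans k1), (G.fix h hx).2 k1]
  · have k1 : ¬ Commute y w := fun k1 => k ((G.iff _ hx _ hw).1 (e.trans ((G.iff _ hy _ hw).2 k1)))
    have t2 := sq_of_comm (h.sq x hx) (h.sq y hy) hxy
    rw [← G.eqv' h hw t2]
    exact ((G.iff _ hw _ (h.conj' hw t2)).2 ((hL x hx y hy w hw hxy k k1).resolve_right hD)).symm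

end Geo

end Cfsg.Agent.PTr
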