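import Mathlib
import Cfsg.Agent.PTr.C
import Cfsg.Agent.Block.ZStar
import Cfsg.Agent.S0200
import Cfsg.Agent.S0205

/-! Sets of involutions whose products have order `1`, `2` or `p`: no such class exists. -/

namespace Cfsg.Agent.PTr

open Subgroup

universe u

theorem no_star {p : ℕ} : ∀ (n : ℕ) (K : Type u) [Group K] [Finite K] (D : Set K),
    Nat.card K = n → PT p D → ¬ Star D := by
  intro n
  induction n using Nat.strong_induction_on with
  | _ n ih =>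
  intro K _ _ D₀ hn h₀ ⟨a, ha₀, b, hb₀, c, hc₀, hab₀, hb1, hne, hac⟩
  have IH : ∀ (L : Type u) [Group L] [Finite L] (E : Set L), Nat.card L < Nat.card K → PT p E →
      ¬ Star E := fun L _ _ E hL => ih _ (hn ▸ hL) L E rfl
  have hab : Commute a b := comm_of_sq (h₀.sq a ha₀) (h₀.sq b hb₀) (h₀.sq _ hab₀)
  have habc : ¬ Commute (a * b) c := fun k => hac (h₀.comm_left ha₀ hb₀ hc₀ hab hne k.symm).symm
  have hbc : ¬ Commute b c := fun k => habc (h₀.comm_left hab₀ ha₀ hc₀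
    ((Commute.refl a).mul_left hab.symm) (by simpa using hb1)
    (by rw [hab.eq, mul_assoc, h₀.sq a ha₀, mul_one]; exact k.symm)).symm
  have cj : ∀ x ∈ D₀, ¬ Commute x c → x ∈ conjugatesOf c := fun x hx k => by
    obtain ⟨s, hs, e⟩ := h₀.exists_swap hc₀ hx fun k1 => k k1.symm
    exact isConj_iff.2 ⟨s, by rw [inv_eq (h₀.sq s hs), e]⟩
  have h := h₀.cls hc₀
  have ha := cj a ha₀ hac
  have hb := cj b hb₀ hbc
  have hd := cj _ hab₀ habc
  have hc : c ∈ conjugatesOf c := mem_conjugatesOf_self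
  generalize hD : conjugatesOf c = D at h ha hb hd hc
  have hg : closure D = ⊤ := by
    by_contra hg
    refine IH (closure D) _ ?_ (h.sub (closure D)) ⟨⟨a, subset_closure ha⟩, ha,
      ⟨b, subset_closure hb⟩, hb, ⟨c, subset_closure hc⟩, hc, hd,
      fun e => hb1 (congrArg Subtype.val e), fun e => hne (congrArg Subtype.val e),
      fun e => hac (congrArg Subtype.val e.eq)⟩
    exact (card_le_card_group _).lt_of_ne fun e => hg (eq_top_of_card_eq _ e)
  have hL := h.loc IH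
  obtain ⟨M, φ, G⟩ := h.exists_geo hL hD.symm hg
  refine G.count h (fun x hx y hy hxy hne' => ?_) ha hb hc hab hne hac
  by_contra hxy'
  let N := (MulAction.toPermHom K (K ⧸ M)).ker
  have mem : ∀ g, g ∈ N ↔ ∀ ω : K ⧸ M, g • ω = ω := fun g => by
    simp [N, MonoidHom.mem_ker, Equiv.ext_iff]
  have hN : N ≠ ⊥ := fun e => by
    have := (mem _).2 (G.ker h hL hx hy hxy hxy')
    rw [e, mem_bot] at this
    exact hne' (by rw [← inv_eq (h.sq y hy)]; exact eq_inv_of_mul_eq_one_left this)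
  have nm : ∀ x ∈ D, ¬ Commute x c → x ∉ N := fun x hx k e =>
    k ((G.iff _ hx _ hc).1 ((G.fix h hx).1 ((mem x).1 e _)))
  refine IH (K ⧸ N) _ ?_ (h.map (QuotientGroup.mk' N) (QuotientGroup.mk'_surjective _))
    ⟨_, ⟨a, ha, rfl⟩, _, ⟨b, hb, rfl⟩, _, ⟨c, hc, rfl⟩, ⟨a * b, hd, map_mul _ _ _⟩,
      fun e => nm b hb hbc ((QuotientGroup.eq_one_iff _).1 e), fun e => nm _ hd habc ?_, fun e => ?_⟩
  · rw [← N.card_mul_index, ← Subgroup.index]
    have : 1 < Nat.card N := (one_lt_card_iff_ne_bot _).2 hN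
    nlinarith [Nat.pos_of_ne_zero N.index_ne_zero_of_finite]
  · have := QuotientGroup.eq.1 e
    rwa [inv_eq (h.sq a ha)] at this
  · have e1 : (QuotientGroup.mk' N (a * c)) ^ 2 ^ 1 = 1 := by
      rw [pow_one, pow_two, map_mul]
      exact sq_of_comm (by rw [← map_mul, h.sq a ha, map_one]) (by rw [← map_mul, h.sq c hc, map_one]) e
    have e2 := eq_one_of_cop (h.cop2 1) e1 (by rw [← map_pow, h.pw ha hc hac, map_one])
    have e3 := (mem _).1 ((QuotientGroup.eq_one_iff _).1 e2) (φ c)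
    rw [mul_smul, (G.fix h hc).2 rfl] at e3
    exact hac ((G.iff _ ha _ hc).1 ((G.fix h ha).1 e3))

variable {G : Type u} [Group G] [Finite G]

theorem inv_odd (hsol : ∀ N : Subgroup G, N.Normal → Group.IsSolvable N → N = ⊥) {t : G}
    (ht : orderOf t = 2) : ∃ h : G, h ≠ 1 ∧ Odd (orderOf h) ∧ t * h * t⁻¹ = h⁻¹ := by
  haveI : Fact (Nat.Prime 2) := ⟨Nat.prime_two⟩
  refine S0200.result t ht fun N hN hp k => ?_
  haveI := hp.isNilpotent
  rw [hsol N hN inferInstance, mem_bot] at k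
  simp [k] at ht

theorem no_pt (hsol : ∀ N : Subgroup G, N.Normal → Group.IsSolvable N → N = ⊥) {p : ℕ} {D : Set G}
    (h : PT p D) {x y c : G} (hD : D = conjugatesOf x) (hg : closure D = ⊤) (hy : y ∈ D) (hy1 : y ≠ 1)
    (hc : c ∈ D) (hxy : Commute x y) (hne : x ≠ y) (hxc : ¬ Commute x c) : False := by
  have hx : x ∈ D := hD ▸ mem_conjugatesOf_self
  have hL := h.loc fun L _ _ E _ => no_star _ L E rfl
  obtain ⟨M, φ, Γ⟩ := h.exists_geo hL hD hg
  refine no_star _ G D rfl h ⟨x, hx, y, hy, c, hc, ?_, hy1, hne, hxc⟩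
  by_contra hxy'
  have t2 := sq_of_comm (h.sq x hx) (h.sq y hy) hxy
  have t1 : x * y ≠ 1 := fun e =>
    hne (by rw [← inv_eq (h.sq y hy)]; exact eq_inv_of_mul_eq_one_left e)
  obtain ⟨g, g1, g2, g3⟩ := inv_odd hsol (t := x * y) (orderOf_eq_prime (by rw [pow_two, t2]) t1)
  have k := Γ.ker h hL hx hy hxy hxy'
  have exy := (Γ.iff _ hx _ hy).2 hxy
  obtain ⟨v, hv⟩ : ∃ v, v = g * (x * y) * g⁻¹ := ⟨_, rfl⟩
  have v2 : v * v = 1 := by
    rw [hv, show g * (x * y) * g⁻¹ * (g * (x * y) * g⁻¹) = g * (x * y * (x * y)) * g⁻¹ by group, t2]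
    simp
  have vf : ∀ ω : G ⧸ M, v • ω = ω := fun ω => by rw [hv, mul_smul, mul_smul, k, smul_inv_smul]
  have hx' := h.conj' hx v2
  have hy' := h.conj' hy v2
  have ex : φ (v * x * v) = φ x := by rw [Γ.eqv' h hx v2, vf]
  have ey : φ (v * y * v) = φ x := by rw [Γ.eqv' h hy v2, vf, exy]
  have c1 : Commute (x * y) (v * x * v * (v * y * v)) :=
    (((Γ.iff _ hx _ hx').1 ex.symm).mul_right ((Γ.iff _ hx _ hy').1 ey.symm)).mul_left
      (((Γ.iff _ hy _ hx').1 (exy.symm.trans ex.symm)).mul_right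
        ((Γ.iff _ hy _ hy').1 (exy.symm.trans ey.symm)))
  have c2 := sq_of_comm t2 (sq_of_comm (h.sq _ hx') (h.sq _ hy')
    ((Γ.iff _ hx' _ hy').1 (ex.trans ey.symm))) c1
  have c3 : x * y * v = g⁻¹ * g⁻¹ := by
    rw [hv, ← mul_assoc, ← mul_assoc]
    nth_rewrite 2 [← inv_eq t2]
    rw [g3]
  have c4 : x * y * (v * x * v * (v * y * v)) = x * y * v * (x * y * v) := by
    rw [show v * x * v * (v * y * v) = v * x * (v * v) * y * v by group, v2]; group
  rw [c4, c3] at c2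
  refine g1 (eq_one_of_cop (m := 2 ^ 3) (n := orderOf g)
    (Nat.Coprime.pow_left _ ((Nat.coprime_two_left).2 g2)) ?_ (pow_orderOf_eq_one g))
  rw [← inv_eq_one, ← inv_pow, ← c2, show 2 ^ 3 = 8 from rfl]
  simp only [pow_succ, pow_zero, one_mul, mul_assoc]

theorem main (hsol : ∀ N : Subgroup G, N.Normal → Group.IsSolvable N → N = ⊥) {D : Set G}
    (hinv : ∀ d ∈ D, orderOf d = 2) {x y z : G} (hD : D = conjugatesOf x) (hg : closure D = ⊤)
    (hr : ∀ w ∈ D, ∃ g : G, Commute g x ∧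
      (g * x * g⁻¹ = w ∨ g * y * g⁻¹ = w ∨ g * z * g⁻¹ = w)) :
    ∀ d ∈ D, ∀ e ∈ D, (d * e) ^ 2 = 1 ∨ (d * e) ^ 3 = 1 := by
  have hx : x ∈ D := hD ▸ mem_conjugatesOf_self
  have sq : ∀ d ∈ D, d * d = 1 := fun d hd => by rw [← pow_two, ← hinv d hd, pow_orderOf_eq_one]
  have n1 : ∀ d ∈ D, d ≠ 1 := fun d hd e => by simpa [e] using hinv d hd
  have cj : ∀ d ∈ D, ∀ g : G, g * d * g⁻¹ ∈ D := fun d hd g => by
    rw [hD] at hd ⊢; exact IsConj.trans hd (isConj_iff.2 ⟨g, rfl⟩)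
  obtain ⟨y₀, hy₀, y1, y2⟩ : ∃ y₀ ∈ D, Commute x y₀ ∧ x ≠ y₀ := by
    by_contra! H
    have hO : pPrimeCore 2 G = ⊥ := hsol _ inferInstance
      (S0205.result (Nat.coprime_two_right.1 (Core.pPrimeCore_coprime 2)))
    have := Block.zstar_center ⟨hinv x hx, fun g k => (H _ (cj x hx g) k).symm⟩ hO
    rw [hsol (center G) inferInstance (Group.isSolvable_of_comm fun a b =>
      Subtype.ext (mem_center_iff.1 b.2 a)), mem_bot] at this
    exact n1 x hx this
  obtain ⟨p, z₀, hp, hp2, hz₀, z1, z2⟩ : ∃ (p : ℕ) (z₀ : G), p.Prime ∧ p ≠ 2 ∧ z₀ ∈ D ∧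
      (x * z₀) ^ p = 1 ∧ ¬ Commute x z₀ := by
    obtain ⟨g, g1, g2, g3⟩ := inv_odd hsol (hinv x hx)
    obtain ⟨p, hp, hpd⟩ := Nat.exists_prime_and_dvd (fun e => g1 (orderOf_eq_one_iff.1 e))
    have hp2 : p ≠ 2 := by rintro rfl; exact g2.not_two_dvd_nat hpd
    have o := orderOf_pow_orderOf_div (orderOf_pos g).ne' hpd
    have i : x * g ^ (orderOf g / p) * x⁻¹ = (g ^ (orderOf g / p))⁻¹ := by
      rw [← conj_pow, g3, inv_pow]
    generalize g ^ (orderOf g / p) = k at o i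
    rw [inv_eq (sq x hx)] at i
    have k2 : x * k * (x * k) = 1 := by rw [← mul_assoc, i, inv_mul_cancel]
    have k3 : x * (x * k) = k := by rw [← mul_assoc, sq x hx, one_mul]
    have k4 : (x * (x * k)) ^ p = 1 := by rw [k3, ← o, pow_orderOf_eq_one]
    refine ⟨p, x * k, hp, hp2, ?_, k4, fun e => ?_⟩
    · obtain ⟨m, hm⟩ := conj_of_odd (sq x hx) k2 (hp.odd_of_ne_two hp2) k4
      have := cj x hx ((x * (x * k)) ^ m)⁻¹
      rwa [inv_inv, hm] at this
    · have := sq_of_comm (sq x hx) k2 e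
      rw [k3, ← pow_two] at this
      have := orderOf_dvd_of_pow_eq_one this
      rw [o] at this
      exact hp2 ((Nat.prime_dvd_prime_iff_eq hp Nat.prime_two).1 this)
  have iP : ∀ g v : G, Commute g x → (Commute x (g * v * g⁻¹) ↔ Commute x v) := fun g v k => by
    have : g * x * g⁻¹ = x := by rw [k.eq, mul_inv_cancel_right]
    nth_rewrite 1 [← this]
    exact Commute.conj_iff g
  have iR : ∀ g v : G, Commute g x → ((x * (g * v * g⁻¹)) ^ p = 1 ↔ (x * v) ^ p = 1) :=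
    fun g v k => by
      rw [show x * (g * v * g⁻¹) = g * (x * v) * g⁻¹ by rw [← mul_assoc, ← mul_assoc, ← k.eq]; group,
        conj_pow, conj_eq_one_iff]
  have key : ∀ w ∈ D, Commute x w ∨ (x * w) ^ p = 1 := fun w hw => by
    obtain ⟨g1, c1, e1⟩ := hr y₀ hy₀
    obtain ⟨g2, c2, e2⟩ := hr z₀ hz₀
    obtain ⟨g3, c3, e3⟩ := hr w hw
    have a1 : Commute x y ∨ Commute x z := by
      rcases e1 with rfl | rfl | rfl
      · exact absurd (by rw [c1.eq, mul_inv_cancel_right]) y2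
      · exact Or.inl ((iP _ _ c1).1 y1)
      · exact Or.inr ((iP _ _ c1).1 y1)
    have a2 : ((x * y) ^ p = 1 ∧ ¬ Commute x y) ∨ ((x * z) ^ p = 1 ∧ ¬ Commute x z) := by
      rcases e2 with rfl | rfl | rfl
      · exact absurd ((iP _ _ c2).2 (Commute.refl x)) z2
      · exact Or.inl ⟨(iR _ _ c2).1 z1, fun k => z2 ((iP _ _ c2).2 k)⟩
      · exact Or.inr ⟨(iR _ _ c2).1 z1, fun k => z2 ((iP _ _ c2).2 k)⟩
    rcases e3 with rfl | rfl | rfl <;> rw [iP _ _ c3, iR _ _ c3]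
    · exact Or.inl (Commute.refl x)
    · tauto
    · tauto
  have ord : ∀ d ∈ D, ∀ e ∈ D, Commute d e ∨ (d * e) ^ p = 1 := fun d hd e he => by
    obtain ⟨g, rfl⟩ := isConj_iff.1 (show d ∈ conjugatesOf x by rwa [hD] at hd)
    have := key _ (cj e he g⁻¹)
    rw [show e = g * (g⁻¹ * e * g⁻¹⁻¹) * g⁻¹ by group, Commute.conj_iff, conj_mul, conj_pow,
      conj_eq_one_iff]
    exact this
  by_cases h3 : p = 3
  · intro d hd e he
    refine (ord d hd e he).imp (fun k => ?_) (h3 ▸ id)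
    rw [pow_two, sq_of_comm (sq d hd) (sq e he) k]
  · exact (no_pt hsol ⟨hp, hp2, h3, sq, cj, ord⟩ hD hg hy₀ (n1 _ hy₀) hz₀ y1 y2 z2).elim

end Cfsg.Agent.PTr
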